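import Cfsg.Agent.F24.S

/-! The unitary group inside the orthogonal group. -/

set_option autoImplicit false
set_option maxRecDepth 1000000
set_option linter.unusedSectionVars false

namespace CF.F24
open Cfsg Subgroup CF.Loc CF.Even CF.LX CF.Comp CF.Dce CF.Comp.Mat CF.Dce.J4 CF.J4 CF.Geom Matrix
open scoped Pointwise commutatorElement

section
variable {F : Type*} [Field F] [Fintype F] (hF : Fintype.card F = 4)
include hF

theorem four : ∃ (ω : F) (c : ZMod 2 →+* F), ω * ω = ω + 1 ∧ ∀ x : F, ∃ a b, x = c a + c b * ω := by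
  classical
  have h2 : (2 : F) = 0 := mul_self_eq_zero.1 (by
    have := FiniteField.cast_card_eq_zero F
    rw [hF] at this; rw [← this]; norm_num)
  haveI : CharP F 2 := CharTwo.of_one_ne_zero_of_two_eq_zero one_ne_zero h2
  obtain ⟨ω, -, h⟩ := Finset.exists_mem_notMem_of_card_lt_card (s := ({0, 1} : Finset F)) (t := Finset.univ)
    ((Finset.card_le_two).trans_lt (by rw [Finset.card_univ, hF]; norm_num))
  simp only [Finset.mem_insert, Finset.mem_singleton, not_or] at h
  have h1 := FiniteField.pow_card_sub_one_eq_one ω h.1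
  rw [hF] at h1
  refine ⟨ω, ZMod.castHom dvd_rfl F, mul_left_cancel₀ (sub_ne_zero.2 h.2) (by
    linear_combination h1 + (1 - ω * ω) * h2), fun x => ?_⟩
  suffices i : Function.Injective fun p : ZMod 2 × ZMod 2 =>
      ZMod.castHom dvd_rfl F p.1 + ZMod.castHom dvd_rfl F p.2 * ω by
    obtain ⟨⟨a, b⟩, e⟩ := ((Fintype.bijective_iff_injective_and_card _).2 ⟨i, by simp [hF]⟩).2 x
    exact ⟨a, b, e.symm⟩
  rintro ⟨a, b⟩ ⟨c, d⟩ e
  have h3 : 1 + ω ≠ 0 := fun e => h.2 (by linear_combination e - h2)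
  have h4 : 1 + ω ≠ ω := fun e => one_ne_zero (α := F) (by linear_combination e)
  rcases zmod_two_cases a with rfl | rfl <;> rcases zmod_two_cases b with rfl | rfl <;>
    rcases zmod_two_cases c with rfl | rfl <;> rcases zmod_two_cases d with rfl | rfl <;>
    simp [h.1, h.2, h3, h4, Ne.symm h.1, Ne.symm h.2, h3.symm, h4.symm] at e ⊢

theorem exists_T : ∃ (ω : F) (c : ZMod 2 →+* F) (T : W0 ≃+ (Fin 6 → F)), ω * ω = ω + 1 ∧
    (∀ x : F, ∃ a b, x = c a + c b * ω) ∧ (∀ w, hermForm 6 F 2 (T w) (T w) = c (qPlus 6 (ZMod 2) w)) ∧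
    ∀ w, T ((φF 4)⁻¹ • w) = ω • T w := by
  obtain ⟨ω, c, h1, h2⟩ := four hF
  have h3 : (2 : F) = 0 := by rw [← map_ofNat c, show (2 : ZMod 2) = 0 from rfl, map_zero]
  have sq : ∀ a, c a * c a = c a := fun a => by rw [← map_mul]; rcases zmod_two_cases a with rfl | rfl <;> simp
  let f : W0 →+ (Fin 6 → F) := AddMonoidHom.mk' (fun w i => c (dec (vm 12 (cod w) MU) (.inl i)) +
    c (dec (vm 12 (cod w) MU) (.inr i)) * ω) fun v w => funext fun i => by
      simp only [cod_add, vm_xor, dec_xor, Pi.add_apply, map_add]; ring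
  have s : Function.Surjective f := fun v => by
    choose a b e using fun i => h2 (v i)
    refine ⟨dec (vm 12 (cod (Sum.elim a b)) MUi), funext fun i => ?_⟩
    simp only [f, AddMonoidHom.mk'_apply, cod_dec (vm_lt 12 _ _), (chkMU _ (cod_lt _)).1, dec_cod, e i]; rfl
  refine ⟨ω, c, AddEquiv.ofBijective f ((Fintype.bijective_iff_surjective_and_card f).2 ⟨s, by simp [hF]⟩), h1, h2,
    fun w => ?_, fun w => funext fun i => ?_⟩
  · rw [← dec_cod w, q_dec, (chkMU _ (cod_lt w)).2.1, dec_cod, map_sum]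
    refine Finset.sum_congr rfl fun i _ => ?_
    simp only [f, AddEquiv.ofBijective_apply, AddMonoidHom.mk'_apply, map_add, map_mul]
    have a := sq (dec (vm 12 (cod w) MU) (.inl i))
    have b := sq (dec (vm 12 (cod w) MU) (.inr i))
    generalize c (dec (vm 12 (cod w) MU) (.inl i)) = x, c (dec (vm 12 (cod w) MU) (.inr i)) = y at a b ⊢
    grind
  · have := (chkMU _ (cod_lt w)).2.2 i
    rw [← dec_cod w, smul_dec ri_P (cod_lt w), dec_cod]
    simp only [f, AddEquiv.ofBijective_apply, AddMonoidHom.mk'_apply, cod_dec (vm_lt 12 _ _), this.1, this.2, map_add,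
      Pi.smul_apply, smul_eq_mul]
    linear_combination (-c (dec (vm 12 (cod w) MU) (.inr i))) * h1

theorem exists_emb : ∃ (ι : GU 6 F 2 →* O) (D : GU 6 F 2), Function.Injective ι ∧ ι.range = 𝐂₁(φF 4) ∧
    orderOf (GeneralLinearGroup.det D.1) = 3 := by
  obtain ⟨ω, c, T, h1, h2, h3, h4⟩ := exists_T hF
  have two : (2 : F) = 0 := by rw [← map_ofNat c, show (2 : ZMod 2) = 0 from rfl, map_zero]
  choose ι hι using fun g : GU 6 F 2 => show ∃ o : O, ∀ w, T (o • w) = g.1.1 *ᵥ T w from by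
    let f : W0 ≃+ W0 := (T.trans (glEquiv _ F g.1).toAddEquiv).trans T.symm
    exact ⟨⟨{ f with map_smul' := ZMod.map_smul f }, mem_OG.2 fun v => c.injective (by
      rw [← h3, ← h3]; exact (congrArg₂ _ (T.apply_symm_apply _) (T.apply_symm_apply _)).trans (g.2 _ _))⟩,
      fun w => T.apply_symm_apply _⟩
  have u : ∀ {o o' : O}, (∀ w, T (o • w) = T (o' • w)) → o = o' := fun e =>
    Subtype.ext (LinearEquiv.ext fun w => T.injective (e w))
  have ω0 : ω ≠ 0 := fun e => by simp [e] at h1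
  refine ⟨MonoidHom.mk' ι fun a b => u fun w => by rw [mul_smul, hι, hι, hι, mulVec_mulVec]; rfl,
    ⟨GeneralLinearGroup.mkOfDetNeZero (diagonal (Function.update 1 0 ω)) (by simp [Fin.prod_univ_succ, ω0]),
      fun u v => ?_⟩, fun a b e => Subtype.ext (Units.ext (matrix_eq_iff_mulVec.2 fun v => by
        rw [← T.apply_symm_apply v, ← hι, ← hι]; exact congrArg (fun o : O => T (o • _)) e)),
    le_antisymm ?_ fun o ho => ?_, ?_⟩
  · simp [hermForm, mulVec_diagonal, Fin.sum_univ_succ]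
    grind
  · rintro _ ⟨g, rfl⟩
    exact mem_c1.2 (Commute.inv_right_iff.1 (u fun w => by
      rw [mul_smul, mul_smul, h4, MonoidHom.mk'_apply, hι, hι, h4, mulVec_smul]))
  · have k : ∀ v, T (o • T.symm (ω • v)) = ω • T (o • T.symm v) := fun v => by
      rw [← h4, ← mul_smul, ← (show Commute o (φF 4) from mem_c1.1 ho).inv_right.eq, mul_smul]
      rw [← T.apply_symm_apply v, ← h4, T.symm_apply_apply, T.symm_apply_apply]
    let f : (Fin 6 → F) ≃+ (Fin 6 → F) := (T.symm.trans o.1.toAddEquiv).trans T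
    have k2 : ∀ a : ZMod 2, ∀ v, f (c a • v) = c a • f v := fun a v => by
      rcases zmod_two_cases a with rfl | rfl <;> simp
    let e : (Fin 6 → F) ≃ₗ[F] (Fin 6 → F) := { f with
      map_smul' := fun x v => by
        obtain ⟨a, b, rfl⟩ := h2 x
        show f _ = (c a + c b * ω) • f v
        rw [add_smul, add_smul, map_add, k2, mul_smul, mul_smul, k2]
        exact congrArg (_ + c b • ·) (k v) }
    have q : ∀ v, hermForm 6 F 2 (e v) (e v) = hermForm 6 F 2 v v := fun v =>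
      (h3 _).trans ((congrArg c (mem_OG.1 o.2 _)).trans ((h3 _).symm.trans
        (congrArg₂ _ (T.apply_symm_apply _) (T.apply_symm_apply _))))
    refine ⟨⟨(glEquiv _ F).symm e, fun u v => ?_⟩, u fun w => (hι _ w).trans ((glEquiv_symm_mulVec e _).trans
      (congrArg (fun x => T (o • x)) (T.symm_apply_apply w)))⟩
    have p : ∀ (a : F) u v, hermForm 6 F 2 (a • u + v) (a • u + v) = a ^ 3 * hermForm 6 F 2 u u + hermForm 6 F 2 v v +
        a * hermForm 6 F 2 u v + (a * hermForm 6 F 2 u v) ^ 2 := fun a u v => by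
      haveI : CharP F 2 := CharTwo.of_one_ne_zero_of_two_eq_zero one_ne_zero two
      simp only [hermForm, Finset.mul_sum, CharTwo.sum_sq, ← Finset.sum_add_distrib, Pi.add_apply, Pi.smul_apply,
        smul_eq_mul]
      refine Finset.sum_congr rfl fun i _ => ?_
      have := FiniteField.pow_card (v i)
      rw [hF] at this
      grind
    have q1 := q ((1 : F) • u + v)
    have q2 := q (ω • u + v)
    rw [map_add, map_smul, p, p, q, q] at q1 q2
    show hermForm 6 F 2 (_ *ᵥ u) (_ *ᵥ v) = _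
    erw [glEquiv_symm_mulVec, glEquiv_symm_mulVec]
    grind
  · haveI : Fact (Nat.Prime 3) := ⟨Nat.prime_three⟩
    refine orderOf_eq_prime (Units.ext ?_) fun e => ?_
    · simp [Fin.prod_univ_succ]; grind
    · have := congrArg Units.val e
      simp [Fin.prod_univ_succ] at this
      rw [this] at h1; simp at h1

theorem classes {F9 : Type*} [Field F9] [Fintype F9] (h9 : Fintype.card F9 = 9) :
    ∃ K : ℕ → Subgroup (SU 6 F 2), (∀ i, Nat.card (center (K i)) = 3 ∧ Nonempty (K i ⧸ center (K i) ≃* PSU 4 F9 3)) ∧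
      (∀ i j g, cj[g] (K i) = K j → i % 3 = j % 3) ∧ ∀ L : Subgroup (SU 6 F 2), Nat.card (center L) = 3 →
        Nonempty (L ⧸ center L ≃* PSU 4 F9 3) → ∃ g, ∃ i < 3, cj[g] L = K i := by
  classical
  haveI : Fact (Nat.Prime 3) := ⟨Nat.prime_three⟩
  obtain ⟨ι, D, inj, r, oD⟩ := exists_emb hF
  let j : SU 6 F 2 →* GU 6 F 2 := (SpecialLinearGroup.toGL.comp (SU 6 F 2).subtype).codRestrict _ fun s => s.2
  let δ : GU 6 F 2 →* Fˣ := GeneralLinearGroup.det.comp (GU 6 F 2).subtype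
  have j1 : ∀ s, δ (j s) = 1 := fun s => Units.ext s.1.2
  have j2 : ∀ g, δ g = 1 → ∃ s, j s = g := fun g e =>
    ⟨⟨⟨g.1.1, congrArg Units.val e⟩, g.2⟩, Subtype.ext (Units.ext rfl)⟩
  let κ := ι.comp j
  have ik : Function.Injective κ := inj.comp fun a b e => Subtype.ext (Subtype.ext (congrArg (fun g => g.1.1) e))
  have l : L0 ≤ ι.range := r ▸ fun x hx => mem_c1.2 (cP hx)
  have A : ∀ g, ι g ∈ L0 → δ g = 1 := fun g hg => by
    have := perf_L0 hg
    rw [← map_comap_eq_self l, ← map_commutator, mem_map_iff_mem inj] at this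
    exact (commutator_le.2 fun a _ b _ => by
      rw [MonoidHom.mem_ker, map_commutatorElement, commutatorElement_eq_one_iff_mul_comm, mul_comm] : _ ≤ δ.ker) this
  have B : ∀ g, ((cj[ι g] L0).comap κ).map κ = cj[ι g] L0 := fun g => map_comap_eq_self (cj_le_iff_forall.2 fun x hx => by
    obtain ⟨y, rfl⟩ := l hx
    obtain ⟨s, e⟩ := j2 (g * y * g⁻¹) (by rw [map_mul, map_mul, A y hx, mul_one, map_inv, mul_inv_cancel])
    exact ⟨s, by simp [κ, e]⟩)
  have C : ∀ s g, cj[s] ((cj[ι g] L0).comap κ) = (cj[ι (j s * g)] L0).comap κ := fun s g =>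
    map_injective ik (by rw [map_cj, B, B, map_mul, cj_mul]; rfl)
  have c3 : Nat.card Fˣ = 3 := by rw [Nat.card_units, Nat.card_eq_fintype_card, hF]
  refine ⟨fun i => (cj[ι (D ^ i)] L0).comap κ, fun i => cover3 ((((equivMapOfInjective _ κ ik).trans
    (MulEquiv.subgroupCongr (B _))).trans (L0.equivMapOfInjective _ (MulAut.conj _).injective).symm)) h9,
    fun a b s e => ?_, fun L h1 ⟨e⟩ => ?_⟩
  · rw [C] at e
    have e1 := congrArg (Subgroup.map κ) e
    rw [B, B, cj_eq_iff, eq_comm, cj_eq_iff, inv_inv, eq_comm, cj_eq_iff, eq_comm, ← cj_mul, ← map_inv, ← map_mul,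
      cj_eq_self_iff] at e1
    have e2 := sq_norm e1 (mem_c1.1 (r ▸ ⟨_, rfl⟩ : ι _ ∈ 𝐂₁(φF 4))).symm
    rw [← map_mul] at e2
    have e3 := A _ e2
    have e4 := pow_card_eq_one' (x := δ ((j s * D ^ a)⁻¹ * D ^ b))
    rw [map_mul] at e3
    rw [c3, pow_succ, pow_two, e3, one_mul, map_mul, map_inv, inv_mul_eq_one, map_mul, j1, one_mul, map_pow, map_pow,
      pow_eq_pow_iff_modEq] at e4
    exact oD ▸ e4
  obtain ⟨x, hx⟩ := (Subgroup.isCyclic_iff_exists_zpowers_eq_top _).1 (isCyclic_of_prime_card h1)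
  have ox : orderOf x = 3 := by rw [← Nat.card_zpowers, hx, h1]
  let ε := L.equivMapOfInjective κ ik
  obtain ⟨ψ, u⟩ := uh_of (K := L.map κ) (P := (ε x : O)) h9 (e.toMonoidHom.comp ((QuotientGroup.mk' _).comp ε.symm.toMonoidHom))
    (e.surjective.comp ((QuotientGroup.mk'_surjective _).comp ε.symm.surjective)) (ε x).2
    (by rw [← coe_pow, ← map_pow, ← ox, pow_orderOf_eq_one, map_one, coe_one])
    (fun k => by
      rw [OneMemClass.coe_eq_one, map_eq_one_iff _ ε.injective] at k; rw [k, orderOf_one] at ox; omega) fun g => by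
      obtain ⟨y, rfl⟩ := ε.surjective g
      refine (map_eq_one_iff _ e.injective).trans ((QuotientGroup.eq_one_iff _).trans ?_)
      rw [← hx]
      exact exists_congr fun k => by
        simp only [MulEquiv.toMonoidHom_eq_coe, MonoidHom.coe_coe, MulEquiv.symm_apply_apply, ← coe_zpow, ← map_zpow,
          Subtype.val_inj, ε.injective.eq_iff]
  obtain ⟨o, ho⟩ := u.std'
  have k : ∃ o ∈ 𝐂₁(φF 4), L.map κ = cj[o] L0 := by
    have := cen_O (x := o⁻¹ * φF 4 * o) fun y hy => by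
      obtain ⟨s, -, e⟩ : o * y * o⁻¹ ∈ L.map κ := ho ▸ conj_mem_cj o hy
      have := mem_c1.1 (r ▸ ⟨_, rfl⟩ : ι (j s) ∈ 𝐂₁(φF 4))
      rw [show ι (j s) = _ from e] at this
      calc _ = o⁻¹ * (o * y * o⁻¹ * φF 4) * o := by group
        _ = _ := by rw [this]; group
    rcases mem_zp3 P3 this with e | e | e
    · exact (P1 (conj_eq_one_iff.1 ((inv_inv o).symm ▸ e : o⁻¹ * φF 4 * o⁻¹⁻¹ = 1))).elim
    · exact ⟨o, mem_c1.2 (inv_mul_eq_iff_eq_mul.1 ((mul_assoc _ _ _).symm.trans e)).symm, ho⟩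
    · refine ⟨o * φF 3, mem_c1.2 ?_, by rw [cj_mul, cj_eq_self R_norm, ho]⟩
      have := eqF (u := [9, 9, 7]) (w := [7, 9]) (by decide +kernel)
      simp only [ev_cons, ev_nil, mul_one, show evL φF 9 = φF 4 from evL_odd φF 4,
        show evL φF 7 = φF 3 from evL_odd φF 3] at this
      rw [mul_assoc, ← this, ← mul_assoc (φF 4), ← e]; group
  obtain ⟨_, ho, e1⟩ := k
  obtain ⟨g, rfl⟩ := r.ge ho
  obtain ⟨i, hi, e2⟩ := Finset.mem_image.1 (mem_zpowers_iff_mem_range_orderOf.1 (show δ g ∈ zpowers (δ D) from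
    (eq_top_of_card_eq _ ((Nat.card_zpowers _).trans (oD.trans c3.symm))).ge trivial))
  obtain ⟨s, e3⟩ := j2 (D ^ i * g⁻¹) (by rw [map_mul, map_inv, map_pow, e2, mul_inv_cancel])
  exact ⟨s, i, oD ▸ Finset.mem_range.1 hi, by
    rw [← comap_map_eq_self_of_injective ik L, e1, C, e3, inv_mul_cancel_right]⟩

end

end CF.F24
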