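import Cfsg.Agent.F24.U
import Cfsg.Agent.Coprime.Special
import Cfsg.Agent.Fgs2.AutP

/-! The normaliser of a singular subgroup of order eight. -/

set_option autoImplicit false
set_option maxRecDepth 1000000
set_option linter.unusedSectionVars false

namespace CF.F24
open Cfsg Subgroup CF.Loc CF.Even CF.LX CF.Comp CF.Dce CF.Comp.Mat CF.Dce.J4 CF.J4
open scoped Pointwise commutatorElement

variable {G : Type*} [Group G]

/-- the elements acting trivially on the image -/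
def fixS {B : Type*} {N C : Subgroup G} (ψ : G → B) (hn : N ≤ 𝐍(C)) : Subgroup G where
  carrier := {l | l ∈ N ∧ ∀ c ∈ C, ψ (l * c * l⁻¹) = ψ c}
  one_mem' := ⟨one_mem _, fun c _ => by simp⟩
  mul_mem' := fun {a b} ha hb => ⟨mul_mem ha.1 hb.1, fun c hc => by
    rw [← hb.2 c hc, ← ha.2 _ (norm_mem' (hn hb.1) hc)]; congr 1; group⟩
  inv_mem' := fun {a} ha => ⟨inv_mem ha.1, fun c hc => by
    rw [← ha.2 _ (norm_mem' (hn (inv_mem ha.1)) hc)]; congr 1; group⟩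

theorem prod_hom {A B : Type*} [Group A] [Group B] {N C : Subgroup G} (α : N →* A) (hC : C ≤ N) (hn : N ≤ 𝐍(C))
    (kα : ∀ n : N, α n = 1 ↔ (n : G) ∈ C) {ψ : G → B} (hψ : HomOn C ψ) (sψ : ∀ b, ∃ c ∈ C, ψ c = b)
    (hz : center B = ⊥) (sα : ∀ a, ∃ l : N, (l : G) ∈ fixS ψ hn ∧ α l = a) :
    ∃ χ : N →* A × B, Function.Surjective χ ∧ ∀ n, χ n = 1 ↔ (n : G) ∈ C ∧ ψ n = 1 := by
  have u : ∀ {b b' : B}, (∀ c ∈ C, b * ψ c * b⁻¹ = b' * ψ c * b'⁻¹) → b = b' := fun {b b'} e => by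
    have : b'⁻¹ * b ∈ center B := mem_center_iff.2 fun x => by
      obtain ⟨c, hc, rfl⟩ := sψ x
      rw [mul_assoc, mul_inv_eq_iff_eq_mul.1 (e c hc)]; group
    exact (inv_mul_eq_one.1 (mem_bot.1 (hz ▸ this))).symm
  have k : ∀ l ∈ fixS ψ hn, ∀ d ∈ C, ∀ c ∈ C, ψ (l * d * c * (l * d)⁻¹) = ψ d * ψ c * (ψ d)⁻¹ :=
    fun l hl d hd c hc => by
      rw [← hψ.conj hd hc, ← hl.2 _ (mul_mem (mul_mem hd hc) (inv_mem hd))]; congr 1; group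
  choose β hβ using fun n : N => show ∃ b, ∀ c ∈ C, ψ (n * c * (n : G)⁻¹) = b * ψ c * b⁻¹ from by
    obtain ⟨l, hl, e⟩ := sα (α n)
    have := k l hl _ ((kα (l⁻¹ * n)).1 (by rw [map_mul, map_inv, e, inv_mul_cancel]))
    exact ⟨_, by simpa using this⟩
  refine ⟨α.prod (MonoidHom.mk' β fun a b => u fun c hc => ?_), fun ⟨a, b⟩ => ?_, fun n => ?_⟩
  · rw [← hβ _ c hc, mul_assoc (β a), mul_inv_rev (β a), ← mul_assoc, mul_assoc (β a), ← hβ b c hc,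
      ← hβ a _ (norm_mem' (hn b.2) hc)]
    congr 1; push_cast; group
  · obtain ⟨l, hl, rfl⟩ := sα a
    obtain ⟨d, hd, rfl⟩ := sψ b
    exact ⟨l * ⟨d, hC hd⟩, Prod.ext (by simp [(kα ⟨d, hC hd⟩).2 hd]) (u fun c hc => (hβ _ c hc).symm.trans
      (k l hl d hd c hc))⟩
  · rw [Prod.ext_iff]
    refine and_congr_left' (kα n) |>.trans (and_congr_right fun hc => ?_)
    rw [← u fun c h => (hβ n c h).symm.trans (hψ.conj hc h)]; rfl

theorem gl_sl : Nonempty (GL (Fin 3) (ZMod 2) ≃* Matrix.SpecialLinearGroup (Fin 3) (ZMod 2)) :=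
  ⟨(MulEquiv.ofBijective Matrix.SpecialLinearGroup.toGL
    ⟨Matrix.SpecialLinearGroup.toGL_injective, fun g => ⟨⟨g.1, (by decide : ∀ a : ZMod 2,
      a ≠ 0 → a = 1) _ ((Matrix.isUnit_iff_isUnit_det _).1 g.isUnit).ne_zero⟩, Units.ext rfl⟩⟩).symm⟩

theorem line4 {c : ℕ} (hc : c < 4) (h0 : c ≠ 0) : ∃ o ∈ zpowers (φF 4), o • dec c = dec 1 ∧
    ∃ y, RI o y ∧ ∀ c < 4, vm 12 c y < 4 := by
  interval_cases c
  · exact (h0 rfl).elim
  · exact ⟨1, one_mem _, one_smul _ _, _, ri_cd.one', by decide +kernel⟩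
  · exact ⟨_, mem_zpowers _, by
      simpa only [show vm 12 1 p0 = 2 by decide +kernel] using smul_dec' ri_P (c := 1) (by norm_num), _, ri_P,
      by decide +kernel⟩
  · exact ⟨_, mul_mem (mem_zpowers _) (mem_zpowers _), by
      simpa only [show vm 12 1 (mm 12 p0 p0) = 3 by decide +kernel] using
        smul_dec' (ri_cd.mul' ri_P ri_P) (c := 1) (by norm_num), _, ri_cd.mul' ri_P ri_P, by decide +kernel⟩

theorem fixY {o : O} (ho : o ∈ stabIn L0 (dec 1)) {c : ℕ} (hc : c < 4) : o • dec c = dec c := by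
  by_cases h0 : c = 0
  · rw [h0, dec_zero, smul_zero]
  obtain ⟨_, ⟨i, rfl⟩, e, -⟩ := line4 hc h0
  rw [← inv_smul_eq_iff.2 e.symm, ← mul_smul, ((cP ho.1).zpow_right i).inv_right.eq, mul_smul, (mem_stabIn.1 ho).2]

theorem memY {o : O} (ho : o ∈ X0) (e : o • dec 2 = dec 2) : o ∈ stabIn L0 (dec 1) := by
  obtain ⟨x, hx, rfl | rfl⟩ := mem_H0 ho.1
  · exact ⟨hx, ho.2⟩
  · have h1 := (mem_stabIn.1 ho).2
    rw [mul_smul, (mem_stabIn.1 (E5_le R_E5)).2] at h1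
    rw [mul_smul, ← fixY (mem_stabIn.2 ⟨hx, h1⟩) (show 2 < 4 by norm_num), smul_left_cancel_iff,
      fixY (mem_stabIn.2 ⟨hx, h1⟩) (show 2 < 4 by norm_num), ri_fix ri_R (by norm_num)] at e
    exact absurd e (by decide +kernel)

theorem homY : ∃ ψ : O → alternatingGroup (Fin 6), HomOn X0 ψ ∧ (∀ b, ∃ o ∈ stabIn L0 (dec 1), ψ o = b) ∧
    ∀ o ∈ X0, ψ o = 1 ↔ o ∈ E5 := by
  classical
  obtain ⟨χ, a, k⟩ := homX
  refine ⟨fun o => if h : o ∈ X0 then χ ⟨o, h⟩ else 1, fun x hx y hy => by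
    simp only [dif_pos hx, dif_pos hy, dif_pos (mul_mem hx hy), ← map_mul]; rfl, fun b => ?_,
    fun o ho => by simp only [dif_pos ho, k]⟩
  obtain ⟨⟨o, ho⟩, rfl⟩ := a b
  obtain ⟨x, hx, rfl | rfl⟩ := mem_H0 ho.1
  · exact ⟨_, ⟨hx, ho.2⟩, dif_pos ho⟩
  · have r := E5_le R_E5
    have h1 := (X0.mul_mem_cancel_right r).1 ho
    exact ⟨x, ⟨hx, h1.2⟩, (dif_pos h1).trans (by
      rw [← mul_one (χ _), ← (k ⟨_, r⟩).2 R_E5, ← map_mul]; rfl)⟩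

/-- the singular subgroup -/
def U3 {E : Subgroup G} {z : G} {π : G → ℕ} (h : FH E z π) : Subgroup G where
  carrier := {e | e ∈ E ∧ π e < 4}
  one_mem' := ⟨one_mem _, by rw [h.one]; norm_num⟩
  mul_mem' := fun {a b} ha hb => ⟨mul_mem ha.1 hb.1, by
    rw [h.mul _ ha.1 _ hb.1]; exact Nat.xor_lt_two_pow (n := 2) ha.2 hb.2⟩
  inv_mem' := fun {a} ha => ⟨inv_mem ha.1, by rw [h.inv ha.1]; exact ha.2⟩

namespace FH
variable [Finite G] {E : Subgroup G} {z : G} {π : G → ℕ} (h : FH E z π)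
include h

local notation "U" => U3 h
local notation "Φ" => Ph E π
local notation "C" => 𝐂(U3 h)
local notation "N" => 𝐍(U3 h)
local notation "R" => HomOn.pre (FH.hom h) E5 ⊓ 𝐂(U3 h)
local notation "𝐐" => fun x : G => 𝐎[2](𝐂₁(x))

theorem zU : z ∈ U := ⟨h.mem, by rw [h.pz]; norm_num⟩

theorem U_le : U ≤ E := fun _ hx => hx.1

theorem eaU : EA U := fun x hx => (h.sq_iff hx.1).2 ((by decide +kernel : ∀ c < 4, qq c = 0) _ hx.2)

theorem card_U : Nat.card U = 8 := by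
  rw [Co.card (n := 2) ⟨two_pos, zpowers_le.2 h.zU, fun a ha b hb => h.mul a ha.1 b hb.1, fun a ha => ha.2,
    fun c hc => have ⟨a, ha, e⟩ := h.surj c (by omega); ⟨a, ⟨ha, e ▸ hc⟩, e⟩, fun a ha => h.ker a ha.1⟩, h.card_z]
  rfl

theorem U_of {K : Subgroup G} (hz : z ∈ K) {a b : G} (ha : a ∈ E) (hb : b ∈ E) (e1 : π a = 1) (e2 : π b = 2)
    (aK : a ∈ K) (bK : b ∈ K) : U ≤ K := fun x hx => by
  have k : ∀ y ∈ E, y ∈ K → π y = π x → x ∈ K := fun y hy hK e =>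
    have ⟨j, _, e⟩ := h.eq_zp hy hx.1 e; e ▸ mul_mem hK (pow_mem hz j)
  have := hx.2
  obtain e | e | e | e : π x = 0 ∨ π x = 1 ∨ π x = 2 ∨ π x = 3 := by omega
  exacts [k 1 (one_mem _) (one_mem _) (h.one.trans e.symm), k a ha aK (e1.trans e.symm), k b hb bK (e2.trans e.symm),
    k _ (mul_mem ha hb) (mul_mem aK bK) (by rw [h.mul _ ha _ hb, e1, e2, e]; rfl)]

theorem C_le : C ≤ 𝐂₁(z) := fun _ hx => mem_c1.2 (hx z h.zU).symm

theorem C_N : C ≤ N := centralizer_le_normalizer _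

theorem N_C : N ≤ 𝐍(C) := normalizer_le_normalizer_centralizer _

theorem move {u s : G} (hu : u ∈ U) (h1 : u ≠ 1) (h2 : u ≠ z) (hs : s ∈ E) (e : π s = 1) :
    ∃ k ∈ N, k * u * k⁻¹ = s := by
  obtain ⟨o, ho, e1, y, e2, e3⟩ := line4 hu.2 (pi_ne h.toFr hu.1 h1 h2)
  obtain ⟨g, hg, rfl⟩ := (h.im o).1 (L0_le (zpowers_le.2 P_mem ho))
  obtain ⟨k, hk, e4, e5⟩ := lift_conj h.toFr hg hu.1 hs (by omega) (e.symm ▸ e1)
  have a := ac_of_ri h.toFr hk (e4 ▸ e2)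
  exact ⟨k, inv_mem_iff.1 (mem_normalizer_fintype fun x hx => by
    rw [inv_inv]; exact ⟨norm_mem a.1 hx.1, by rw [a.2 x hx.1]; exact e3 _ hx.2⟩), e5⟩

theorem fixC {k : G} (hk : k ∈ C) {c : ℕ} (hc : c < 4) : Φ k • dec c = dec c := by
  obtain ⟨a, ha, rfl⟩ := h.surj c (by omega)
  rw [ph_smul h.toFr (h.C_le hk) ha, ← hk a ⟨ha, hc⟩, mul_inv_cancel_right]

theorem phi_C {k : G} (hk : k ∈ C) : Φ k ∈ stabIn L0 (dec 1) :=
  memY (mem_stabIn.2 ⟨h.memH0 (h.C_le hk), h.fixC hk (by norm_num)⟩) (h.fixC hk (by norm_num))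

theorem sur_C {o : O} (ho : o ∈ stabIn L0 (dec 1)) : ∃ k ∈ C, Φ k = o := by
  obtain ⟨g, hg, rfl⟩ := (h.im o).1 (L0_le ho.1)
  have k : ∀ c < 4, ∃ a ∈ E, π a = c ∧ ∃ i < 2, g * a * g⁻¹ = a * z ^ i := fun c hc => by
    obtain ⟨a, ha, rfl⟩ := h.surj c (by omega)
    have b := norm_mem' (h.nor hg) ha
    exact ⟨a, ha, rfl, h.eq_zp ha b (dec_inj (h.lt' ha) (h.lt' b) ((fixY ho hc).symm.trans (ph_smul h.toFr hg ha)))⟩
  obtain ⟨a, ha, a1, i, hi, a2⟩ := k 1 (by norm_num)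
  obtain ⟨b, hb, b1, j, hj, b2⟩ := k 2 (by norm_num)
  obtain ⟨f, hf, e⟩ := h.surj (64 * i + 128 * j) (by omega)
  have fH := h.le_c1 hf
  have t : ∀ x ∈ E, ∀ i, g * x * g⁻¹ = x * z ^ i → bb (π x) (π f) = i → x ∈ 𝐂₁(f⁻¹ * g) := fun x hx i e1 e2 =>
    mem_c1.2 (conj_eq_iff.1 (by
      calc _ = f⁻¹ * (g * x * g⁻¹) * f := by group
        _ = _ := by rw [e1, ← mul_assoc, mul_assoc _ _ f, h.zpc fH, ← mul_assoc, h.conj hx hf, e2, mul_assoc,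
          zp_self h.zz, mul_one])).symm
  have e3 := (by decide +kernel : ∀ i < 2, ∀ j < 2, bb 1 (64 * i + 128 * j) = i ∧ bb 2 (64 * i + 128 * j) = j) i hi j hj
  refine ⟨f⁻¹ * g, fun x hx => mem_c1.1 (h.U_of (mem_c1.2 (mem_c1.1 (mul_mem (inv_mem fH) hg)).symm) ha hb a1 b1
    (t a ha i a2 (by rw [a1, e, e3.1])) (t b hb j b2 (by rw [b1, e, e3.2])) hx), ?_⟩
  rw [h.hom _ (inv_mem fH) _ hg, ph_E h.toFr (inv_mem hf), one_mul]

theorem mem_R {x : G} : x ∈ R ↔ x ∈ C ∧ Φ x ∈ E5 :=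
  ⟨fun e => ⟨e.2, (h.hom.mem_pre.1 e.1).2⟩, fun e => ⟨h.hom.mem_pre.2 ⟨h.C_le e.1, e.2⟩, e.1⟩⟩

theorem EC_le : E ⊓ C ≤ R := fun _ hx => h.mem_R.2 ⟨hx.2, ph_E h.toFr hx.1 ▸ one_mem _⟩

theorem card_R : Nat.card ↥R = 2 ^ 15 := by
  have c := h.card_mul_card h.zU h.U_le
  rw [h.card_U, h.card] at c
  rw [card_im h.toFr (inf_le_right.trans h.C_le), show (ph_hom h.toFr).im R _ = E5 ⊓ L0 from ext fun o =>
    h.hom.mem_im.trans ⟨fun ⟨x, hx, e⟩ => e ▸ ⟨(h.mem_R.1 hx).2, (h.phi_C hx.2).1⟩, fun ho =>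
      have ⟨k, hk, e⟩ := h.sur_C ⟨ho.2, (E5_le ho.1).2⟩; ⟨k, h.mem_R.2 ⟨hk, e ▸ ho.1⟩, e⟩⟩, card_E0,
    show R ⊓ E = E ⊓ C from le_antisymm (le_inf inf_le_right (inf_le_left.trans inf_le_right))
      (le_inf h.EC_le inf_le_left)]
  omega

theorem pR : IsPGroup 2 ↥R := IsPGroup.of_card h.card_R

theorem le_R {T : Subgroup G} (h1 : T ≤ C) (h2 : C ≤ 𝐍(T)) (h3 : IsPGroup 2 T) : T ≤ R := fun x hx =>
  h.mem_R.2 ⟨h1 hx, @two_le (h.hom.im T (h1.trans h.C_le)) (fun _ ho => have ⟨y, hy, e⟩ := h.hom.mem_im.1 ho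
    e ▸ inf_le_inf_right _ L0_le (h.phi_C (h1 hy))) (fun o ho => mem_normalizer_fintype fun _ hy => by
      obtain ⟨k, hk, rfl⟩ := h.sur_C ho
      obtain ⟨y, hy', rfl⟩ := h.hom.mem_im.1 hy
      exact h.hom.mem_im.2 ⟨_, norm_mem' (h2 hk) hy', h.hom.conj (h.C_le hk) (h.C_le (h1 hy'))⟩)
    (h3.of_surjective _ (h.hom.mono (h1.trans h.C_le)).hom.rangeRestrict_surjective) _ (h.hom.mem_im.2 ⟨x, hx, rfl⟩)⟩

theorem R_eq : R = 𝐎[2](C) := le_antisymm (le_pCoreOf h.pR inf_le_right fun k hk => mem_normalizer_fintype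
    fun x hx => by
      obtain ⟨ψ, a, -, b⟩ := homY
      have m := fun {k} hk => inf_le_inf_right _ L0_le (h.phi_C (k := k) hk)
      refine h.mem_R.2 ⟨norm_mem' (h.N_C (h.C_N hk)) hx.2, ?_⟩
      rw [h.hom.conj (h.C_le hk) (h.C_le hx.2), ← b _ (mul_mem (mul_mem (m hk) (m hx.2)) (inv_mem (m hk))),
        a.conj (m hk) (m hx.2), (b _ (m hx.2)).2 (h.mem_R.1 hx).2, mul_one, mul_inv_cancel])
  (h.le_R (pCoreOf_le _ _) (le_normalizer_pCoreOf _ _) (isPGroup_pCoreOf _ _))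

theorem N_R : N ≤ 𝐍(R) := h.R_eq ▸ h.N_C.trans (normalizer_le_normalizer_pCoreOf _ _)

theorem cen_R : R ⊓ 𝐂(R) = U := by
  refine le_antisymm (fun x hx => ?_) (le_inf ((le_inf h.U_le h.eaU.le_cent).trans h.EC_le)
    fun u hu r hr => (hr.2 u hu).symm)
  have c : x ∈ 𝐂(E ⊓ C) := centralizer_le h.EC_le hx.2
  refine h.cent_cent h.zU h.U_le ▸ mem_inf.2 ⟨(ph_ker h.toFr (h.C_le hx.1.2)).1 (ex5.eq_one (h.mem_R.1 hx.1).2
    fun L hL => ?_), c⟩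
  obtain ⟨a1, a2⟩ := (by decide +kernel : ∀ L ∈ c5, L.b < 4096 ∧ ∀ c < 4, bb c L.b = 0) L hL
  obtain ⟨a, ha, e⟩ := h.surj _ a1
  show Φ x • dec L.b = dec L.b
  rw [← e, ph_smul h.toFr (h.C_le hx.1.2) ha, ← c a ⟨ha, fun u hu => (h.comm_iff hu.1 ha).2 (e ▸ a2 _ hu.2)⟩,
    mul_inv_cancel_right]

variable (hO : 𝐎[2](𝐂₁(z)) = E)
include hO

theorem pairQ {s : G} (hs : s ∈ E) (e : π s = 1) :
    Pair E (𝐐 s) z s ∧ ∀ o ∈ E5, ∃ b ∈ 𝐐 s, b ∈ 𝐂₁(z) ∧ Φ b = o := by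
  have n : s ≠ z := fun k => by rw [k, h.pz] at e; omega
  obtain ⟨g, rfl⟩ := isConj_iff.1 ((h.zc hs n).2 (e ▸ by decide +kernel))
  have k := (h.key hs n).2 1 (one_mem _) (by rw [e, one_smul])
  beta_reduce
  rw [← cj_core, hO]
  refine ⟨h.toLQ.pair (by rw [h.card]; norm_num) n hs, fun o ho => ?_⟩
  rw [← k, cj_one] at ho
  obtain ⟨b, hb, e⟩ := h.hom.mem_im.1 ho
  exact ⟨b, hb.1, hb.2, e⟩

theorem sing : Sing 𝐐 U := by
  obtain ⟨s, hs, e⟩ := h.surj 1 (by norm_num)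
  obtain ⟨p, k⟩ := h.pairQ hO hs e
  have l : U ≤ 𝐐 s := by
    obtain ⟨b, h1, h2, e1⟩ := k _ (φ5_mem 0)
    obtain ⟨a, ha, e2⟩ := h.surj 8 (by norm_num)
    have c := ac_of_ri h.toFr h2 (e1 ▸ tb5.odd 0)
    have n := norm_mem c.1 ha
    refine h.U_of p.zP hs (mul_mem n (inv_mem ha)) e (by
      rw [h.mul _ n _ (inv_mem ha), c.2 a ha, h.inv ha, e2]; decide +kernel) p.r.mem ?_
    rw [mul_assoc, mul_assoc, ← mul_assoc a]
    exact mul_mem (inv_mem h1) (norm_mem' (p.r.nor' ((h.comm_iff ha hs).2 (by rw [e, e2]; decide +kernel))) h1)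
  refine sing_of_core (hO ▸ h.toEX) (fun u hu h1 => ?_) fun u hu v hv h1 _ => ?_
  · by_cases h2 : u = z
    · exact ⟨1, by simp [h2]⟩
    exact isConj_iff.1 ((h.zc hu.1 h2).2 ((by decide +kernel : ∀ c < 4, c ≠ 0 → M1701.testBit c = true) _ hu.2
      (pi_ne h.toFr hu.1 h1 h2)))
  by_cases h2 : u = z
  · exact h2 ▸ hO ▸ hv.1
  obtain ⟨k, hk, rfl⟩ := h.move hu h1 h2 hs e
  have := l (norm_mem' hk hv)
  beta_reduce at this
  rw [← cj_core, mem_cj] at this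
  simpa [mul_assoc] using this

theorem trans {v w : G} (hv : v ∈ U) (hw : w ∈ U) (v1 : v ≠ 1) (w1 : w ≠ 1) : ∃ n ∈ N, n * w * n⁻¹ = v :=
  have ⟨g, a, _, b⟩ := (h.sing hO).exists_move bot_le hv hw v1 w1; ⟨g, (h.sing hO).LU_norm a, b⟩

theorem core_N : 𝐎[2](N) = R := by
  refine le_antisymm (h.le_R (fun x hx v hv => ?_) (h.C_N.trans (le_normalizer_pCoreOf _ _)) (isPGroup_pCoreOf _ _))
    (le_pCoreOf h.pR (inf_le_right.trans h.C_N) h.N_R)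
  obtain ⟨⟨u, hu⟩, u1⟩ := ne_bot_iff_exists_ne_one.1 (inf_centralizer_ne_bot h.eaU.pgroup (isPGroup_pCoreOf 2 N)
    (pCoreOf_le _ _) fun e => h.z_ne (mem_bot.1 (e ▸ h.zU)))
  by_cases v1 : v = 1
  · simp [v1]
  obtain ⟨n, hn, rfl⟩ := h.trans hO hv hu.1 v1 fun e => u1 (Subtype.ext e)
  exact (norm_mem' (normalizer_le_normalizer_centralizer _ (le_normalizer_pCoreOf 2 N hn)) hu.2 x hx).symm

theorem mem_QU {x : G} (hx : ∀ n ∈ N, n⁻¹ * x * n ∈ E) : x ∈ QU 𝐐 U := LX.mem_QU.2 fun u hu h1 => by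
  obtain ⟨n, hn, rfl⟩ := h.trans hO hu h.zU h1 h.z_ne
  beta_reduce
  rw [← cj_core, hO]; exact mem_cj.2 (hx n hn)

theorem QU_le {x : G} (hR : x ∈ R) (hx : ∀ n ∈ N, n⁻¹ * x * n ∈ E) : x ∈ U := by
  have hx := h.mem_QU hO hx
  refine h.cen_R ▸ mem_inf.2 ⟨hR, fun r hr => (commutatorElement_eq_one_iff_mul_comm.1 ?_).symm⟩
  obtain ⟨s, hs, e⟩ := h.surj 1 (by norm_num)
  obtain ⟨p, k⟩ := h.pairQ hO hs e
  have t : ∀ x ∈ QU 𝐐 U, ∀ r ∈ R, ⁅x, r⁆ ∈ E ∧ π ⁅x, r⁆ < 2 := fun x hx r hr => by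
    obtain ⟨b, h1, h2, e1⟩ := k _ (h.mem_R.1 hr).2
    have h3 := ph_div h.toFr h2 (h.C_le hr.2) e1
    have h4 : x ∈ E := hO ▸ LX.mem_QU.1 hx z h.zU h.z_ne
    obtain ⟨j, -, e2⟩ := h.mem_zp.1 (h.comm_mem h4 h3)
    have e3 : ⁅x, r⁆ = x * b * x⁻¹ * b⁻¹ * z ^ j := by
      rw [← h.conj_zp (inv_mem h2) j, ← e2, commutatorElement_def]; group
    rcases p.r.mem_z.1 (p.r.comm_mem (LX.mem_QU.1 hx s ⟨hs, by omega⟩ p.r.z_ne) h1) with e4 | e4 <;> rw [e3, e4]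
    exacts [⟨mul_mem (one_mem _) (pow_mem h.mem j), by rw [h.mul_zp (one_mem _), h.one]; omega⟩,
      ⟨mul_mem hs (pow_mem h.mem j), by rw [h.mul_zp hs]; omega⟩]
  by_contra y1
  obtain ⟨b, hb, e2⟩ := h.surj 2 (by norm_num)
  obtain ⟨n, hn, e3⟩ := h.trans hO ⟨hb, by omega⟩ ⟨(t x hx r hr).1, by have := (t x hx r hr).2; omega⟩
    (fun k => by rw [k, h.one] at e2; omega) y1
  have := (t _ (norm_mem' ((h.sing hO).norm_QU hn) hx) _ (norm_mem' (h.N_R hn) hr)).2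
  rw [← conjugate_commutatorElement, e3] at this
  omega

theorem special : IsSpecial 2 ↥R := by
  have k : ∀ x ∈ R, ∀ y ∈ R, Φ (x * y) = Φ x * Φ y := fun x hx y hy => h.hom _ (h.C_le hx.2) _ (h.C_le hy.2)
  have s : ∀ x ∈ R, x ^ 2 ∈ U := fun x hx => h.QU_le hO (pow_mem hx 2) fun n hn => by
    have := norm_mem (h.N_R hn) hx
    rw [show n⁻¹ * x ^ 2 * n = n⁻¹ * x * n * (n⁻¹ * x * n) by rw [pow_two]; group,
      ← ph_ker h.toFr (h.C_le (mul_mem this this).2), k _ this _ this, ea5 _ (h.mem_R.1 this).2]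
  have c : ⁅R, R⁆ ≤ U := commutator_le.2 fun x hx y hy => by
    have := mul_mem (mul_mem (s _ (mul_mem hx hy)) (norm_mem (h.C_N hy.2) (inv_mem (s x hx)))) (inv_mem (s y hy))
    rwa [show (x * y) ^ 2 * (y⁻¹ * (x ^ 2)⁻¹ * y) * (y ^ 2)⁻¹ = ⁅x, y⁆ by
      rw [commutatorElement_def, pow_two, pow_two, pow_two]; group] at this
  have d : U ≤ ⁅R, R⁆ := fun u hu => by
    by_cases u1 : u = 1
    · exact u1 ▸ one_mem _
    obtain ⟨n, hn, rfl⟩ := h.trans hO hu h.zU u1 h.z_ne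
    refine norm_mem' (le_normalizer_commutator h.N_R h.N_R hn) ?_
    obtain ⟨a, ha, e1⟩ := h.surj 4 (by norm_num)
    obtain ⟨b, hb, e2⟩ := h.surj 256 (by norm_num)
    have m : ∀ a ∈ E, (∀ c < 4, bb c (π a) = 0) → a ∈ R := fun a ha e =>
      h.EC_le ⟨ha, fun u hu => (h.comm_iff hu.1 ha).2 (e _ hu.2)⟩
    have := commutator_mem_commutator (inv_mem (m a ha (by rw [e1]; decide +kernel)))
      (inv_mem (m b hb (by rw [e2]; decide +kernel)))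
    rwa [commutatorElement_def, inv_inv, inv_inv, mul_assoc, mul_assoc, ← mul_assoc b⁻¹, h.conj ha hb,
      inv_mul_cancel_left, e1, e2, show bb 4 256 = 1 by decide +kernel, pow_one] at this
  rw [Coprime.isSpecial_iff, h.cen_R]
  exact ⟨h.pR, le_antisymm (Coprime.frattiniOf_le_of c s) (d.trans (Coprime.commutator_le_frattiniOf h.pR)),
    le_antisymm c d⟩

theorem quotN : ∃ χ : N →* Matrix.SpecialLinearGroup (Fin 3) (ZMod 2) × alternatingGroup (Fin 6),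
    Function.Surjective χ ∧ ∀ n, χ n = 1 ↔ (n : G) ∈ R := by
  obtain ⟨ψ, a, b, c⟩ := homY
  have m := fun {k} hk => inf_le_inf_right _ L0_le (h.phi_C (k := k) hk)
  haveI := (elem_of h.eaU).1
  obtain ⟨e⟩ := Fgs2.nonempty_mulAut_equiv_GL (V := U) (p := 2) (r := 3)
    (fun x => Subtype.ext ((pow_two _).trans (h.eaU _ x.2))) h.card_U
  obtain ⟨e'⟩ := gl_sl
  have hψ : HomOn C fun k => ψ (Φ k) := fun x hx y hy => by
    beta_reduce; rw [h.hom _ (h.C_le hx) _ (h.C_le hy), a _ (m hx) _ (m hy)]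
  obtain ⟨χ, s, k⟩ := prod_hom ((e.trans e').toMonoidHom.comp (cact U)) h.C_N h.N_C (fun n =>
    (map_eq_one_iff _ (e.trans e').injective).trans (SetLike.ext_iff.1 (normalizerMonoidHom_ker U) n)) hψ
    (fun y => have ⟨o, ho, e⟩ := b y; have ⟨k, hk, e'⟩ := h.sur_C ho; ⟨k, hk, e' ▸ e⟩)
    (alternatingGroup.center_eq_bot (by simp)) fun y => by
      obtain ⟨g, hg, e1⟩ := (h.sing hO).exists_aut ((e.trans e').symm y)
      refine ⟨⟨g, (h.sing hO).LU_norm hg⟩, LU_le (fun u hu h1 q hq => ?_) hg, (e.trans e').eq_symm_apply.1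
        (MulEquiv.ext fun u => Subtype.ext (e1 u))⟩
      have n := (h.sing hO).Q_norm hu h1 hq
      have l : C ≤ 𝐍(𝐐 u) := fun x hx => le_normalizer_pCoreOf 2 _ (mem_c1.2 (hx u hu).symm)
      refine ⟨n, fun x hx => ?_⟩
      have n1 := norm_mem' (h.N_C n) hx
      have n2 := mul_mem n1 (inv_mem hx)
      have := (c _ (m n2)).2 (h.mem_R.1 (h.le_R (T := 𝐐 u ⊓ C) inf_le_right (fun k hk => mem_normalizer_fintype
        fun y hy => mem_inf.2 ⟨norm_mem' (l hk) hy.1, norm_mem' (h.N_C (h.C_N hk)) hy.2⟩)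
        ((isPGroup_pCoreOf 2 _).to_le inf_le_left) (mem_inf.2 ⟨by
          rw [mul_assoc, mul_assoc, ← mul_assoc x]; exact mul_mem hq (norm_mem' (l hx) (inv_mem hq)), n2⟩))).2
      exact mul_inv_eq_one.1 (((hψ _ n1 _ (inv_mem hx)).trans (congrArg _ (hψ.inv hx))).symm.trans this)
  exact ⟨χ, s, fun n => (k n).trans ((and_congr_right fun hn => c _ (m hn)).trans h.mem_R.symm)⟩

end FH

end CF.F24
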