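import Cfsg.Agent.F24.U

/-! The normaliser of `3 · U₄(3)` in the orthogonal group. -/

set_option autoImplicit false
set_option maxRecDepth 1000000
set_option linter.unusedSectionVars false

namespace CF.F24
open Cfsg Subgroup CF.Loc CF.Even CF.LX CF.Comp CF.Dce CF.Comp.Mat CF.Dce.J4 CF.J4 CF.Geom Matrix
open scoped Pointwise commutatorElement

noncomputable def MU : ℕ := (nat_lit 0x810c202043080810c2030c3000c30c0030c3)
noncomputable def MUi : ℕ := (nat_lit 0xc10c203043080c10c243041010c104043041)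
noncomputable def s7P : List (List (List ℕ)) := [[[(nat_lit 0)]],
  [[(nat_lit 1)]],
  [[], [(nat_lit 0)], [(nat_lit 0), (nat_lit 0), (nat_lit 0)]],
  [[], [(nat_lit 0), (nat_lit 0)], [(nat_lit 0), (nat_lit 0), (nat_lit 0)]]]
noncomputable def s7A : ℕ := (nat_lit 0x4796048a70a4b0c0dcf1771b53e002936001)
noncomputable def s7I : ℕ := (nat_lit 0x30594143a48a5235fcd583aaa4e97b004001)
noncomputable def s7S : List St := [⟨1, 0, 0, [(nat_lit 2)], [(nat_lit 0), (nat_lit 1), (nat_lit 2), (nat_lit 3), (nat_lit 312), (nat_lit 313), (nat_lit 314), (nat_lit 315), (nat_lit 548), (nat_lit 549), (nat_lit 550), (nat_lit 551), (nat_lit 796), (nat_lit 797), (nat_lit 798), (nat_lit 799), (nat_lit 1028), (nat_lit 1029), (nat_lit 1030), (nat_lit 1031), (nat_lit 1340), (nat_lit 1341), (nat_lit 1342), (nat_lit 1343), (nat_lit 1568), (nat_lit 1569), (nat_lit 1570), (nat_lit 1571), (nat_lit 1816), (nat_lit 1817), (nat_lit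 1818), (nat_lit 1819), (nat_lit 2060), (nat_lit 2061), (nat_lit 2062), (nat_lit 2063), (nat_lit 2356), (nat_lit 2357), (nat_lit 2358), (nat_lit 2359), (nat_lit 2600), (nat_lit 2601), (nat_lit 2602), (nat_lit 2603), (nat_lit 2832), (nat_lit 2833), (nat_lit 2834), (nat_lit 2835), (nat_lit 3080), (nat_lit 3081), (nat_lit 3082), (nat_lit 3083), (nat_lit 3376), (nat_lit 3377), (nat_lit 3378), (nat_lit 3379), (nat_lit 3628), (nat_lit 3629), (nat_lit 3630), (nat_lit 3631), (nat_lit 3860), (nat_lit 3861), (nat_lit 3862), (nat_lit 3863)]⟩,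
  ⟨0, 0, 0, [], []⟩,
  ⟨0, 0, 1, [], []⟩,
  ⟨0, 1, 0, [], []⟩,
  ⟨0, 1, 1, [], []⟩,
  ⟨0, 3, 1, [], []⟩,
  ⟨1, 0, 0, [(nat_lit 3)], [(nat_lit 0), (nat_lit 120), (nat_lit 164), (nat_lit 220), (nat_lit 266), (nat_lit 370), (nat_lit 430), (nat_lit 470), (nat_lit 517), (nat_lit 637), (nat_lit 673), (nat_lit 729), (nat_lit 783), (nat_lit 887), (nat_lit 939), (nat_lit 979), (nat_lit 1025), (nat_lit 1145), (nat_lit 1189), (nat_lit 1245), (nat_lit 1291), (nat_lit 1395), (nat_lit 1455), (nat_lit 1495), (nat_lit 1540), (nat_lit 1660), (nat_lit 1696), (nat_lit 1752), (nat_lit 1806), (nat_lit 1910), (nat_lit 1962), (nat_lit 2002), (nat_lit 2051), (nat_lit 2171), (nat_lit 2215), (nat_lit 2271), (nat_lit 2313), (nat_lit 2417), (nat_lit 2477), (nat_lit 2517), (nat_lit 2566), (nat_lit 2686), (nat_lit 2722), (nat_lit 2778), (nat_lit 2828), (nat_lit 2932), (nat_lit 2984), (nat_lit 3024), (nat_lit 3074), (nat_lit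 3194), (nat_lit 3238), (nat_lit 3294), (nat_lit 3336), (nat_lit 3440), (nat_lit 3500), (nat_lit 3540), (nat_lit 3591), (nat_lit 3711), (nat_lit 3747), (nat_lit 3803), (nat_lit 3853), (nat_lit 3957), (nat_lit 4009), (nat_lit 4049)]⟩,
  ⟨0, 6, 0, [], []⟩,
  ⟨0, 6, 1, [], []⟩,
  ⟨0, 7, 0, [], []⟩,
  ⟨0, 7, 1, [], []⟩,
  ⟨0, 9, 1, [], []⟩]

theorem chkS7 : srchOK (nth (mo 12) LF 1) p0 (nth (mo 12) LF 1) p0 s7P s7A s7I s7S (fun X => imp (tb M378 (vm 12 18 X))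
    (lany (fun i => lany (fun j => Nat.beq X (mm 12 (pw (mm 12) (mo 12) (nth (mo 12) LF 1) i)
      (pw (mm 12) (mo 12) p0 j))) [0, 1, 2]) [0, 1, 2, 3, 4, 5, 6])) = true := by decide +kernel

theorem chkMU : ∀ x < 4096, vm 12 (vm 12 x MUi) MU = x ∧
    (qq x : ZMod 2) = ∑ i, (dec (vm 12 x MU) (.inl i) + dec (vm 12 x MU) (.inr i) +
      dec (vm 12 x MU) (.inl i) * dec (vm 12 x MU) (.inr i)) ∧
    ∀ i, dec (vm 12 (vm 12 x p0) MU) (.inl i) = dec (vm 12 x MU) (.inr i) ∧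
      dec (vm 12 (vm 12 x p0) MU) (.inr i) = dec (vm 12 x MU) (.inl i) + dec (vm 12 x MU) (.inr i) := by
  decide +kernel

theorem UH.std' {K : Subgroup O} {P : O} {φ : O → Equiv.Perm ℕ} (h : UH K P φ) : ∃ o, K = cj[o] L0 := by
  obtain ⟨o₀, k₀⟩ := h.std
  obtain ⟨o₁, k₁⟩ := rg_chg o₀ (a := G0) (a' := G0i) (by decide +kernel)
  refine ⟨o₁, (Comp.eq_of_le_of_card_le (cj_le_iff.2 (clo_le.2 fun w hw => ?_))
    (by rw [card_cj, h.card]; exact card_L0.ge)).symm⟩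
  obtain ⟨x, hx, e1⟩ := (by decide +kernel : ∀ w ∈ gensW 3, ∃ x ∈ [A0, C0, U0],
    cj2 G0 G0i x = evW (mm 12) (mo 12) (nth (mo 12) LF) w) w hw
  obtain ⟨m, hm, e2⟩ := k₀ x hx
  rw [← RI.eq (e1 ▸ k₁ _ _ e2) (riF w)]
  simpa using conj_mem_cj o₁⁻¹ hm

theorem a_mem : φF 0 ∈ L0 := ev_single φF 0 ▸ memL (by decide +kernel)

theorem norm7 {x : O} (hx : x ∈ 𝐍(L0)) (h1 : φF 0 * x = x * φF 0) (h2 : φF 4 * x = x * φF 4) : x ∈ L0 := by
  obtain ⟨X, lX, hX⟩ := mr_ri.ex x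
  obtain ⟨i, -, e⟩ := lany_iff.1 (imp_iff.1 (srch_sound chkS7 (ri_iso hX) lX (mr_ri.tw (tbF.odd 0) (tbF.odd 0) hX h1)
    (mr_ri.tw ri_P ri_P hX h2)) (by
      rw [tb_eq]; exact keep (inv_mem hx) (c := 18) (by decide +kernel) (vm_lt 12 _ _) (smul_dec hX (by norm_num))))
  obtain ⟨j, -, e⟩ := lany_iff.1 e
  rw [beq_iff.1 e] at hX
  rw [hX.eq (ri_cd.mul' (ri_cd.pow (tbF.odd 0) i) (ri_cd.pow ri_P j))]
  exact mul_mem (pow_mem a_mem i) (pow_mem P_mem j)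

theorem cen_O {x : O} (hx : x ∈ 𝐂(L0)) : x ∈ zpowers (φF 4) :=
  cen_L0 (norm7 (centralizer_le_normalizer _ hx) (hx _ a_mem) (hx _ P_mem)) hx

theorem sq_norm {m : O} (hm : m ∈ 𝐍(L0)) (h : φF 4 * m = m * φF 4) : m * m ∈ L0 := by
  haveI : Fact (Nat.Prime 7) := ⟨by norm_num⟩
  have a7 : φF 0 ^ 7 = 1 := by rw [← ev_single φF, ← ev_wpow]; exact eqF (w := []) (by decide +kernel)
  have o : orderOf (φF 0) = 7 := orderOf_eq_prime a7 fun e =>
    absurd ((e ▸ tbF.odd 0).uniq ri_cd.one' (by decide +kernel) (mo_lt t12)) (by decide +kernel)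
  have c : φF 1 ∈ L0 := ev_single φF 1 ▸ memL (by decide +kernel)
  have ac : (φF 1)⁻¹ * φF 0 * φF 1 = φF 0 ^ 2 := by
    simpa [evL, pow_two, mul_assoc] using eqF (u := [4, 1, 3]) (w := [1, 1]) (by decide +kernel)
  have t : ∀ {n : O} {k l}, n⁻¹ * φF 0 * n = φF 0 ^ k → ∀ {n' : O}, n'⁻¹ * φF 0 * n' = φF 0 ^ l →
      (n * n')⁻¹ * φF 0 * (n * n') = φF 0 ^ (l * k) := fun {n k l} e n' e' => by
    rw [pow_mul, ← e', show n'⁻¹ * φF 0 * n' = n'⁻¹ * φF 0 * n'⁻¹⁻¹ by rw [inv_inv], conj_pow, ← e]; group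
  have t2 : ∀ j, (φF 1 ^ j)⁻¹ * φF 0 * φF 1 ^ j = φF 0 ^ 2 ^ j := fun j => by
    induction j with
    | zero => simp
    | succ j ih => rw [pow_succ, t ih ac, pow_succ']
  obtain ⟨y, hy, e⟩ := Bt.exists_conj_mem (zpowers_le.2 a_mem) (p := 7) (by norm_num) (m := 1399680)
    (by rw [card_L0, Nat.card_zpowers, o]) (by norm_num) (norm_mem hm a_mem) (a := 1) (by
      rw [pow_one, show m⁻¹ * φF 0 * m = m⁻¹ * φF 0 * m⁻¹⁻¹ by rw [inv_inv], conj_pow, a7]; group)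
  obtain ⟨k, hk, e⟩ := Finset.mem_image.1 (mem_zpowers_iff_mem_range_orderOf.1 e)
  have e1 : (m * y⁻¹)⁻¹ * φF 0 * (m * y⁻¹) = φF 0 ^ k := by rw [e]; group
  obtain ⟨j, hj⟩ := (by decide : ∀ k < 7, k ≠ 0 → ∃ j < 3, 2 ^ j * k * (2 ^ j * k) % 7 = 1) k
    (o ▸ Finset.mem_range.1 hk) fun k0 => by
      rw [k0, pow_zero, mul_assoc, inv_mul_eq_one, eq_comm, mul_eq_right] at e1
      rw [e1, orderOf_one] at o; omega
  have e2 := t (t e1 (t2 j)) (t e1 (t2 j))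
  have l := mul_mem (inv_mem hy) (pow_mem c j)
  rw [← pow_mod_orderOf (φF 0), o, hj.2, pow_one, mul_assoc m y⁻¹] at e2
  generalize y⁻¹ * φF 1 ^ j = l at l e2
  have n := mul_mem hm (le_normalizer l)
  have p : Commute (φF 4) (m * _) := Commute.mul_right h (cP l).symm
  have := mul_mem (mul_mem (norm7 (mul_mem n n) (inv_mul_eq_iff_eq_mul.1 ((mul_assoc _ _ _).symm.trans e2))
    (p.mul_right p)) (inv_mem l)) (inv_mem (norm_mem hm l))
  convert this using 1; group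

theorem cover3 {C : Type*} [Group C] (e : C ≃* L0) {F : Type*} [Field F] [Fintype F] (hF : Fintype.card F = 9) :
    Nat.card (center C) = 3 ∧ Nonempty (C ⧸ center C ≃* PSU 4 F 3) := by
  haveI : Fact (Nat.Prime 3) := ⟨Nat.prime_three⟩
  have c : ∀ c, c ∈ center C ↔ (e c : O) ∈ zpowers (φF 4) := fun c =>
    ⟨fun h => cen_O fun k hk => by
      obtain ⟨y, hy⟩ := e.surjective ⟨k, hk⟩
      have := congrArg (fun x => (e x : O)) (mem_center_iff.1 h y)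
      simpa [hy] using this,
    fun ⟨i, h⟩ => mem_center_iff.2 fun y => e.injective (Subtype.ext (by
      simp only [map_mul, coe_mul, ← h]; exact (cP (e y).2).zpow_right i))⟩
  obtain ⟨φ, a, k⟩ := isoL hF
  refine ⟨?_, ⟨(QuotientGroup.quotientMulEquivOfEq (ext fun x => (c x).trans (k _).symm)).trans
    (QuotientGroup.quotientKerEquivOfSurjective (φ.comp e.toMonoidHom) (a.comp e.surjective))⟩⟩
  rw [← card_map_of_injective (f := L0.subtype.comp e.toMonoidHom) ((subtype_injective _).comp e.injective),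
    show (center C).map (L0.subtype.comp e.toMonoidHom) = zpowers (φF 4) from le_antisymm (map_le_iff_le_comap.2 fun x hx => (c x).1 hx)
      (zpowers_le.2 ⟨e.symm ⟨_, P_mem⟩, (c _).2 (by simp), by simp⟩), Nat.card_zpowers, orderOf_eq_prime P3 P1]

end CF.F24
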